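import Cfsg.Agent.Lib.SchurMult.U43.ThreeGroup

/-!
The `3`-part of the kernel of a stem extension of `PSU₄(3)` has at most two generators of order three.
-/

set_option autoImplicit false
set_option linter.unusedSectionVars false
set_option linter.style.haveILetI false
set_option maxRecDepth 4000

namespace CfsgLib.SchurMult.U43.Three

open scoped commutatorElement

/-- The three-cycle `(2 3 4)`. -/
def rho2 : A6 := ⟨Equiv.swap 2 3 * Equiv.swap 3 4, Equiv.Perm.mem_alternatingGroup.2 (by decide)⟩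

theorem stab_split : ∀ π : A6, π.1 0 = 0 → π.1 1 = 1 →
    ∃ (k : Fin 3) (v : A6), v * v = 1 ∧ v.1 0 = 0 ∧ v.1 1 = 1 ∧ π = rho2 ^ k.val * v := by
  decide +kernel

theorem perm_facts : tau * tau = 1 ∧ tau'.1 0 = 1 ∧ tau'.1 1 = 0 ∧ tau' * rho * tau'⁻¹ = rho⁻¹ ∧ rho ^ 3 = 1 ∧
    tau' = tau * (tau * tau') ∧ (tau * tau') * (tau * tau') = 1 ∧ (tau * tau').1 0 = 0 ∧ (tau * tau').1 1 = 1 ∧
    rho2.1 0 = 0 ∧ rho2.1 1 = 1 ∧ (tau.1 0 = 1 ∧ tau.1 1 = 0) ∧ rho * rho' = rho' * rho := by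
  decide +kernel

theorem move_facts : ∀ j : Fin 6, j ≠ 0 → ∃ π : A6, π.1 0 = 0 ∧ π.1 1 = j := fun j hj => exists_move 0 j hj.symm

theorem swap_move : ∃ π : A6, π.1 0 = 0 ∧ π.1 1 = 2 ∧ π.1 2 = 1 := exists_move₃ 0 2 1 (by decide) (by decide) (by decide)

theorem dd_eq (i j : Fin 6) : dd i j = (dd 0 i)⁻¹ * dd 0 j := by rw [← dd_mul 0 i j, inv_mul_cancel_left]

theorem dd_zero_range (j : Fin 6) : dd 0 j ∈ Eh.range := by
  by_cases h : j = 0
  · rw [h, show dd 0 0 = 1 from mul_eq_left.1 (dd_mul 0 0 0)]; exact one_mem _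
  obtain ⟨l, rfl⟩ := Fin.exists_succ_eq.2 h
  exact ⟨_, (dd_zero l).symm⟩

theorem dd_range (i j : Fin 6) : dd i j ∈ Eh.range := by
  rw [dd_eq]; exact mul_mem (inv_mem (dd_zero_range i)) (dd_zero_range j)

theorem cube_Eh {g : G0} (h : g ∈ Eh.range) : g ^ 3 = 1 := by
  obtain ⟨c, rfl⟩ := h
  rw [← map_pow, show c ^ 3 = 1 from Multiplicative.toAdd.injective (funext fun j => by
    rw [toAdd_pow, toAdd_one, Pi.smul_apply, nsmul_eq_mul, show ((3 : ℕ) : K) = 0 by decide, zero_mul]; rfl),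
    map_one]

theorem indep_nat (b : Fin 5 → ℕ)
    (h : dd 0 1 ^ b 0 * dd 0 2 ^ b 1 * dd 0 3 ^ b 2 * dd 0 4 ^ b 3 * dd 0 5 ^ b 4 ∈ aa.range) (i j : Fin 5) :
    b i % 3 = b j % 3 := by
  rw [prod_eq] at h
  exact (ZMod.natCast_eq_natCast_iff' _ _ 3).1 (indep h i j)

/-- The edges in the group itself. -/
theorem edge_base : Edge (MonoidHom.id G0) aa dd (dd 0 1) 3 where
  surj := Function.surjective_id
  central := by rw [show (MonoidHom.id G0).ker = ⊥ from (MonoidHom.ker_eq_bot_iff _).2 Function.injective_id]; exact bot_le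
  npos := by norm_num
  img := rfl
  pow := cube_Eh (dd_range 0 1)
  conj := dd_conj
  mul := dd_mul
  cyc := dd_cyc
  fix π h0 h1 T hT := by
    rw [show T = aa π from hT, dd_conj, h0, h1]
  flip T hT := by
    rw [show T = aa tau from hT, dd_conj, perm_facts.2.2.2.2.2.2.2.2.2.2.2.1.1,
      perm_facts.2.2.2.2.2.2.2.2.2.2.2.1.2, ← mul_eq_one_iff_eq_inv, dd_mul]
    exact mul_eq_left.1 (dd_mul 1 1 1)
  comm i j k l X Y hX hY := by
    obtain ⟨c, hc⟩ := dd_range i j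
    obtain ⟨c', hc'⟩ := dd_range k l
    rw [show X = Eh c from hX.trans hc.symm, show Y = Eh c' from hY.trans hc'.symm]
    exact (Commute.all c c').map Eh
  tri R hR := by
    rw [show R = aa rho from hR, pow_two, ← map_mul, dd_conj, dd_conj, show rho.1 0 = 1 by decide,
      show rho.1 1 = 2 by decide, show (rho * rho).1 0 = 2 by decide, show (rho * rho).1 1 = 0 by decide, dd_mul,
      dd_mul]
    exact mul_eq_left.1 (dd_mul 0 0 0)
  indep b h i j := indep_nat b h i j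

/-- The subgroup `3^4 : A₆`. -/
noncomputable def HH : Subgroup G0 := edge_base.H

theorem not_dvd_index_HH : ¬ 3 ∣ HH.index := by
  have hc := Subgroup.card_mul_index HH
  rw [HH, edge_base.card_H aa_injective, card_G0, nat_card_alternatingGroup, Nat.card_fin] at hc
  simp [Nat.factorial] at hc
  rw [HH]
  omega

/-- The bound for kernels of `3`-power exponent. -/
theorem bound {Γ : Type} [Group Γ] [Finite Γ] (σ : Γ →* G0) (hs : Function.Surjective σ)
    (hc : σ.ker ≤ Subgroup.center Γ) (h3 : ∀ z ∈ σ.ker, z ^ 3 ^ 6 = 1) :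
    ∃ c : Fin 2 → Γ, (∀ i, c i ∈ σ.ker ∧ c i ^ (fun _ => 3) i = 1) ∧
      ∀ z ∈ ⁅HH.comap σ, HH.comap σ⁆, z ∈ σ.ker → z ∈ Subgroup.closure (Set.range c) := by
  have kc : ∀ {z : Γ}, z ∈ σ.ker → ∀ g : Γ, g * z = z * g := fun hz g => ker_comm hc hz g
  have ker_sq : ∀ {z : Γ}, z ∈ σ.ker → z * z = 1 → z = 1 := fun {z} hz h => by
    have h2 : orderOf z ∣ 2 := orderOf_dvd_of_pow_eq_one (by rw [pow_two, h])
    have := Nat.dvd_gcd h2 (orderOf_dvd_of_pow_eq_one (h3 z hz))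
    rw [show Nat.gcd 2 (3 ^ 6) = 1 by norm_num, Nat.dvd_one] at this
    exact orderOf_eq_one_iff.1 this
  obtain ⟨pt, pt'0, pt'1, prho, prho3, ptau', pv, pv0, pv1, pr0, pr1, pt01, pcomm⟩ := perm_facts
  have self : ∀ i, dd i i = 1 := fun i => mul_eq_left.1 (dd_mul i i i)
  have hinv : dd 1 0 = (dd 0 1)⁻¹ := eq_inv_of_mul_eq_one_left (by rw [dd_mul, self])
  -- the inverted lift
  obtain ⟨T, hT⟩ := hs (aa tau)
  obtain ⟨x, hx, hxT⟩ : ∃ x, σ x = dd 0 1 ∧ T * x * T⁻¹ = x⁻¹ := by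
    obtain ⟨x, hx⟩ := hs (dd 0 1)
    have hz : x * (T * x * T⁻¹) ∈ σ.ker := by
      rw [MonoidHom.mem_ker, map_mul, map_mul, map_mul, map_inv, hT, hx, dd_conj, pt01.1, pt01.2, dd_mul, self]
    set z := x * (T * x * T⁻¹) with hzd
    have hy : z ^ 365 ∈ σ.ker := pow_mem hz _
    have hyy : z = z ^ 365 * z ^ 365 := by
      rw [← pow_add, show 365 + 365 = 3 ^ 6 + 1 by norm_num, pow_succ, h3 z hz, one_mul]
    refine ⟨x * (z ^ 365)⁻¹, by rw [map_mul, map_inv, MonoidHom.mem_ker.1 hy, inv_one, mul_one, hx], ?_⟩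
    have e1 : T * x * T⁻¹ = x⁻¹ * z := (inv_mul_cancel_left _ _).symm
    calc T * (x * (z ^ 365)⁻¹) * T⁻¹ = (T * x * T⁻¹) * (T * (z ^ 365)⁻¹ * T⁻¹) := by group
      _ = x⁻¹ * z * (z ^ 365)⁻¹ := by rw [kc (inv_mem hy) T, mul_inv_cancel_right, e1]
      _ = x⁻¹ * z ^ 365 := by rw [mul_assoc]; nth_rewrite 1 [hyy]; rw [mul_inv_cancel_right]
      _ = (x * (z ^ 365)⁻¹)⁻¹ := by rw [mul_inv_rev, inv_inv, kc hy x⁻¹]
  have conj_eq : ∀ {U U' : Γ}, σ U = σ U' → ∀ y, U * y * U⁻¹ = U' * y * U'⁻¹ := fun {U U'} h y => by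
    have hz : U'⁻¹ * U ∈ σ.ker := by rw [MonoidHom.mem_ker, map_mul, map_inv, h, inv_mul_cancel]
    conv_lhs => rw [show U = U' * (U'⁻¹ * U) from (mul_inv_cancel_left _ _).symm]
    rw [mul_inv_rev, mul_assoc U', ← kc hz y]
    group
  have hflip : ∀ U, σ U = aa tau → U * x * U⁻¹ = x⁻¹ := fun U hU => (conj_eq (hU.trans hT.symm) x).trans hxT
  have hx3 : x ^ 3 = 1 := by
    have hk : x ^ 3 ∈ σ.ker := by rw [MonoidHom.mem_ker, map_pow, hx, cube_Eh (dd_range 0 1)]
    refine ker_sq hk ?_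
    have e : T * x ^ 3 * T⁻¹ = (x ^ 3)⁻¹ := by rw [← conj_pow, hxT, inv_pow]
    rw [kc hk T, mul_inv_cancel_right] at e
    nth_rewrite 1 [e]
    rw [inv_mul_cancel]
  have hinvol : ∀ v : A6, v * v = 1 → v.1 0 = 0 → v.1 1 = 1 → ∀ U, σ U = aa v → U * x * U⁻¹ = x := by
    intro v hv h0 h1 U hU
    set z := x⁻¹ * (U * x * U⁻¹) with hzd
    have hz : z ∈ σ.ker := by
      rw [MonoidHom.mem_ker, map_mul, map_inv, map_mul, map_mul, map_inv, hU, hx, dd_conj, h0, h1, inv_mul_cancel]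
    have e1 : U * x * U⁻¹ = x * z := (mul_inv_cancel_left _ _).symm
    have e2 : (U * U) * x * (U * U)⁻¹ = x := by
      rw [conj_eq (U' := 1) (by rw [map_mul, hU, ← map_mul, hv, map_one, map_one]) x]
      group
    have e3 : (U * U) * x * (U * U)⁻¹ = x * (z * z) := by
      calc (U * U) * x * (U * U)⁻¹ = U * (U * x * U⁻¹) * U⁻¹ := by group
        _ = (U * x * U⁻¹) * (U * z * U⁻¹) := by nth_rewrite 1 [e1]; group
        _ = x * z * z := by rw [e1, kc hz U, mul_inv_cancel_right]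
        _ = x * (z * z) := mul_assoc _ _ _
    rw [e2, eq_comm, mul_eq_left] at e3
    rw [e1, ker_sq hz e3, mul_one]
  -- lifts of edges commute
  obtain ⟨Y, hY⟩ := hs (dd 0 2)
  have hXY : Commute x Y := by
    obtain ⟨π, h0, h1, h2⟩ := swap_move
    obtain ⟨U, hU⟩ := hs (aa π)
    have hcm : Commute (σ x) (σ Y) := by
      rw [hx, hY]; exact edge_base.comm 0 1 0 2 _ _ rfl rfl
    have e := comm_conj_eq hc (T := U) (X' := Y) (Y' := x) hcm
      (by rw [map_mul, map_mul, map_inv, hU, hx, dd_conj, h0, h1, hY])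
      (by rw [map_mul, map_mul, map_inv, hU, hY, dd_conj, h0, h2, hx])
    rw [← commutatorElement_eq_one_iff_commute]
    refine ker_sq (comm_mem_ker hcm) ?_
    nth_rewrite 1 [← e]
    rw [← commutatorElement_inv, inv_mul_cancel]
  have hcomm := edge_comm hs hc dd_conj dd_mul hx hY hXY
  -- the first kernel element
  obtain ⟨R2, hR2⟩ := hs (aa rho2)
  set c1 := x⁻¹ * (R2 * x * R2⁻¹) with hc1
  have hc1k : c1 ∈ σ.ker := by
    rw [MonoidHom.mem_ker, hc1, map_mul, map_inv, map_mul, map_mul, map_inv, hR2, hx, dd_conj, pr0, pr1,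
      inv_mul_cancel]
  have hc13 : c1 ^ 3 = 1 := by
    have hcx : Commute x⁻¹ (R2 * x * R2⁻¹) :=
      (hcomm 0 1 0 1 _ _ hx (by rw [map_mul, map_mul, map_inv, hR2, hx, dd_conj, pr0, pr1])).inv_left
    rw [hc1, hcx.mul_pow, inv_pow, conj_pow, hx3, mul_one, mul_inv_cancel, inv_one, one_mul]
  -- the triangle
  have htri : ∀ R, σ R = aa rho → x * (R * x * R⁻¹) * (R ^ 2 * x * (R ^ 2)⁻¹) = 1 := by
    intro R hR
    obtain ⟨V, hV⟩ := hs (aa (tau * tau'))
    have hT' : σ (T * V) = aa tau' := by rw [map_mul, hT, hV, ← map_mul, ← ptau']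
    have hxT' : (T * V) * x * (T * V)⁻¹ = x⁻¹ := by
      rw [show (T * V) * x * (T * V)⁻¹ = T * (V * x * V⁻¹) * T⁻¹ by group, hinvol _ pv pv0 pv1 V hV, hxT]
    have hR1 : σ (R * x * R⁻¹) = dd 1 2 := by
      rw [map_mul, map_mul, map_inv, hR, hx, dd_conj, show rho.1 0 = 1 by decide, show rho.1 1 = 2 by decide]
    have hR2' : σ (R ^ 2 * x * (R ^ 2)⁻¹) = dd 2 0 := by
      rw [map_mul, map_mul, map_inv, map_pow, hR, hx, pow_two, ← map_mul, dd_conj,
        show (rho * rho).1 0 = 2 by decide, show (rho * rho).1 1 = 0 by decide]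
    set p := R * x * R⁻¹ with hp
    set q := R ^ 2 * x * (R ^ 2)⁻¹ with hq
    have hz : x * p * q ∈ σ.ker := by
      rw [MonoidHom.mem_ker, map_mul, map_mul, hx, hR1, hR2', dd_mul, dd_mul, self]
    have himg : ∀ n : ℕ, σ ((T * V) * R ^ n * (T * V)⁻¹) = aa (tau' * rho * tau'⁻¹) ^ n := fun n => by
      rw [map_mul, map_mul, map_inv, map_pow, hT', hR, map_mul, map_mul, map_inv, conj_pow]
    have ep : (T * V) * p * (T * V)⁻¹ = q⁻¹ := by
      rw [show (T * V) * p * (T * V)⁻¹ = ((T * V) * R ^ 1 * (T * V)⁻¹) * ((T * V) * x * (T * V)⁻¹) *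
        ((T * V) * R ^ 1 * (T * V)⁻¹)⁻¹ by rw [hp]; group, hxT',
        conj_eq (U' := R ^ 2) (by
          rw [himg, prho, map_pow σ, hR, pow_one, ← map_pow, ← mul_left_inj (aa rho), ← map_mul, ← map_mul,
            inv_mul_cancel, ← pow_succ, prho3]) x⁻¹, hq]
      group
    have eq' : (T * V) * q * (T * V)⁻¹ = p⁻¹ := by
      rw [show (T * V) * q * (T * V)⁻¹ = ((T * V) * R ^ 2 * (T * V)⁻¹) * ((T * V) * x * (T * V)⁻¹) *
        ((T * V) * R ^ 2 * (T * V)⁻¹)⁻¹ by rw [hq]; group, hxT',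
        conj_eq (U' := R) (by
          rw [himg, prho, hR, ← map_pow, inv_pow, ← mul_right_inj (aa (rho ^ 2)), ← map_mul, ← map_mul,
            mul_inv_cancel, ← pow_succ, prho3]) x⁻¹, hp]
      group
    clear_value p q
    have e : (T * V) * (x * p * q) * (T * V)⁻¹ = (x * p * q)⁻¹ := by
      have c1' : Commute x p := hcomm 0 1 1 2 _ _ hx hR1
      have c2' : Commute x q := hcomm 0 1 2 0 _ _ hx hR2'
      calc (T * V) * (x * p * q) * (T * V)⁻¹ = ((T * V) * x * (T * V)⁻¹) * ((T * V) * p * (T * V)⁻¹) *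
            ((T * V) * q * (T * V)⁻¹) := by group
        _ = x⁻¹ * q⁻¹ * p⁻¹ := by rw [hxT', ep, eq']
        _ = (p * q * x)⁻¹ := by group
        _ = (x * p * q)⁻¹ := by rw [← (c1'.mul_right c2').eq, mul_assoc]
    rw [kc hz, mul_inv_cancel_right] at e
    exact ker_sq hz (by nth_rewrite 1 [e]; rw [inv_mul_cancel])
  -- the second kernel element, before dividing out the first
  choose π hπ0 hπ1 using move_facts
  choose U hU using fun (j : Fin 6) (hj : j ≠ 0) => hs (aa (π j hj))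
  let wj : Fin 5 → Γ := fun j => U j.succ (Fin.succ_ne_zero j) * x * (U j.succ (Fin.succ_ne_zero j))⁻¹
  have hwj : ∀ j, σ (wj j) = dd 0 j.succ := fun j => by
    simp only [wj, map_mul, map_inv, hU, hx, dd_conj, hπ0, hπ1]
  have hw3 : ∀ j, wj j ^ 3 = 1 := fun j => by simp only [wj, conj_pow, hx3, mul_one, mul_inv_cancel]
  set g := wj 0 * wj 1 * wj 2 * wj 3 * wj 4 with hg
  have hwc : ∀ i j, Commute (wj i) (wj j) := fun i j => hcomm _ _ _ _ _ _ (hwj i) (hwj j)
  have hg3 : g ^ 3 = 1 := by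
    rw [hg, (((hwc 0 4).mul_left (hwc 1 4)).mul_left (hwc 2 4) |>.mul_left (hwc 3 4)).mul_pow,
      (((hwc 0 3).mul_left (hwc 1 3)).mul_left (hwc 2 3)).mul_pow, ((hwc 0 2).mul_left (hwc 1 2)).mul_pow,
      (hwc 0 1).mul_pow, hw3, hw3, hw3, hw3, hw3]
    simp
  have hgk : g ∈ σ.ker := by
    rw [MonoidHom.mem_ker, hg, map_mul, map_mul, map_mul, map_mul, hwj, hwj, hwj, hwj, hwj]
    exact dd_cyc
  refine ⟨![c1, g], fun i => ?_, ?_⟩
  · fin_cases i
    · exact ⟨hc1k, hc13⟩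
    · exact ⟨hgk, hg3⟩
  -- divide out the first kernel element
  let C := Subgroup.zpowers c1
  haveI hCn : C.Normal := ⟨fun z hz y => by
    rw [kc ((Subgroup.zpowers_le.2 hc1k) hz) y, mul_inv_cancel_right]; exact hz⟩
  let σ' : Γ ⧸ C →* G0 := QuotientGroup.lift C σ (Subgroup.zpowers_le.2 hc1k)
  let q : Γ →* Γ ⧸ C := QuotientGroup.mk' C
  have hσq : ∀ y, σ' (q y) = σ y := fun _ => rfl
  have hs' : Function.Surjective σ' := fun y => by obtain ⟨w, hw⟩ := hs y; exact ⟨q w, hw⟩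
  have hlift : ∀ U' : Γ ⧸ C, ∃ U0, q U0 = U' := QuotientGroup.mk'_surjective C
  have hc' : σ'.ker ≤ Subgroup.center (Γ ⧸ C) := fun y hy => by
    obtain ⟨w, rfl⟩ := hlift y
    refine Subgroup.mem_center_iff.2 fun v => ?_
    obtain ⟨v, rfl⟩ := hlift v
    rw [← map_mul, ← map_mul, kc hy v]
  have hcR : q (R2 * x * R2⁻¹) = q x := by
    rw [show R2 * x * R2⁻¹ = x * c1 from (mul_inv_cancel_left _ _).symm, map_mul,
      show q c1 = 1 from (QuotientGroup.eq_one_iff c1).2 (Subgroup.mem_zpowers c1), mul_one]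
  have S : Edge σ' aa dd (q x) 3 := {
    surj := hs'
    central := hc'
    npos := by norm_num
    img := hx
    pow := by rw [← map_pow, hx3, map_one]
    conj := dd_conj
    mul := dd_mul
    cyc := dd_cyc
    fix := fun σπ h0 h1 U' hU' => by
      obtain ⟨U0, rfl⟩ := hlift U'
      obtain ⟨k, v, hv, hv0, hv1, rfl⟩ := stab_split σπ h0 h1
      obtain ⟨V, hV⟩ := hs (aa v)
      rw [← map_mul, ← map_inv, ← map_mul, conj_eq (U' := R2 ^ k.val * V)
        (by rw [← hσq, hU', map_mul, map_mul, map_pow, map_pow, hR2, hV]) x,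
        show R2 ^ k.val * V * x * (R2 ^ k.val * V)⁻¹ = R2 ^ k.val * (V * x * V⁻¹) * (R2 ^ k.val)⁻¹ by group,
        hinvol v hv hv0 hv1 V hV]
      have hk : ∀ n : ℕ, q (R2 ^ n * x * (R2 ^ n)⁻¹) = q x := fun n => by
        induction n with
        | zero => simp
        | succ n ih =>
          rw [show R2 ^ (n + 1) * x * (R2 ^ (n + 1))⁻¹ = R2 ^ n * (R2 * x * R2⁻¹) * (R2 ^ n)⁻¹ by
            rw [pow_succ]; group, map_mul, map_mul, hcR, ← map_mul, ← map_mul, ih]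
      exact hk _
    flip := fun U' hU' => by
      obtain ⟨U0, rfl⟩ := hlift U'
      rw [← map_mul, ← map_inv, ← map_mul, hflip U0 hU', map_inv]
    comm := fun i j k l X Z hX hZ => by
      obtain ⟨X, rfl⟩ := hlift X
      obtain ⟨Z, rfl⟩ := hlift Z
      exact (hcomm i j k l X Z hX hZ).map q
    tri := fun R hR => by
      obtain ⟨R0, rfl⟩ := hlift R
      rw [← map_pow, ← map_inv, ← map_inv, ← map_mul, ← map_mul, ← map_mul, ← map_mul, ← map_mul, ← map_mul,
        htri R0 hR, map_one]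
    indep := indep_nat }
  have hgen : S.gen = q g := by
    have hW : ∀ j : Fin 5, S.W 0 j.succ = q (wj j) := fun j => by
      have := S.W_eq (π j.succ (Fin.succ_ne_zero j)) (T := q (U j.succ (Fin.succ_ne_zero j))) (hU _ _)
      rw [hπ0, hπ1, ← map_inv, ← map_mul, ← map_mul] at this
      exact this
    rw [hg, map_mul, map_mul, map_mul, map_mul, ← hW, ← hW, ← hW, ← hW, ← hW]
    rfl
  have hHH : S.H = HH := by
    refine Subgroup.ext fun y => ⟨?_, ?_⟩ <;> rintro ⟨m, ⟨b, rfl⟩, p, rfl⟩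
    · exact ⟨edge_base.ee b, ⟨b, rfl⟩, p, by rw [S.map_ee, edge_base.map_ee]⟩
    · exact ⟨S.ee b, ⟨b, rfl⟩, p, by rw [S.map_ee, edge_base.map_ee]⟩
  have hD : ∀ z ∈ ⁅aa.range.comap σ', aa.range.comap σ'⁆, z ∈ σ'.ker → z ∈ Subgroup.zpowers S.gen := by
    refine complement_bound hs' hc' Nat.prime_three (fun z hz => ⟨6, ?_⟩) aa_injective perfect_alt nine.range
      not_dvd_index _ fun z hz _ => ?_
    · obtain ⟨w, rfl⟩ := hlift z
      rw [← map_pow, h3 w hz, map_one]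
    obtain ⟨A, hA⟩ := hs' (aa rho)
    obtain ⟨B, hB⟩ := hs' (aa rho')
    obtain ⟨Gg, hGg⟩ := hs' (qm gg)
    have hEl : ∀ (c c' : Multiplicative (Fin 5 → K)) (P P' : Γ ⧸ C), σ' P = Eh c → σ' P' = Eh c' → Commute P P' := by
      have key : ∀ c : Multiplicative (Fin 5 → K), ∃ m ∈ S.M, σ' m = Eh c := fun c => by
        refine ⟨S.ee fun j => (c.toAdd j).val, ⟨_, rfl⟩, ?_⟩
        rw [S.map_ee]
        exact (prod_eq fun j => (c.toAdd j).val).trans (congrArg Eh
          (Multiplicative.toAdd.injective (funext fun j => ZMod.natCast_zmod_val (n := 3) (c.toAdd j))))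
      intro c c' P P' hP hP'
      obtain ⟨_, ⟨b, rfl⟩, hm⟩ := key c
      obtain ⟨_, ⟨b', rfl⟩, hm'⟩ := key c'
      rw [← commutatorElement_eq_one_iff_commute, comm_eq_of_map_eq hc' (hP.trans hm.symm) (hP'.trans hm'.symm),
        commutatorElement_eq_one_iff_commute, Commute, SemiconjBy, ← S.ee_add, ← S.ee_add, add_comm]
    have hAB : ⁅A, B⁆ ∈ Subgroup.zpowers S.gen := by
      refine S.comm_mem ⟨_, hA.symm⟩ ⟨_, hB.symm⟩ (by rw [hA, hB]; exact Commute.map (pcomm : Commute rho rho') aa) (S.W_mem 2 1) (one_mem _) ?_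
      rw [mul_one, ← commutatorElement_eq_one_iff_commute]
      obtain ⟨P, hP⟩ := hs' (Eh (Multiplicative.ofAdd ![0, 1, 1, 1, 1]))
      obtain ⟨P', hP'⟩ := hs' (Eh (Multiplicative.ofAdd ![0, 0, 2, 1, 0]))
      rw [comm_eq_of_map_eq hc' (a' := Gg * P * Gg⁻¹) (b' := Gg * P' * Gg⁻¹)
        (by rw [map_mul, map_mul, map_mul, map_inv, hA, S.map_W, hGg, hP, translate₁])
        (by rw [map_mul, map_mul, map_inv, hB, hGg, hP', translate₂]),
        show ⁅Gg * P * Gg⁻¹, Gg * P' * Gg⁻¹⁆ = Gg * ⁅P, P'⁆ * Gg⁻¹ by simp only [commutatorElement_def]; group,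
        commutatorElement_eq_one_iff_commute.2 (hEl _ _ _ _ hP hP'), mul_one, mul_inv_cancel]
    have hle : (nine.range.map aa).comap σ' ≤ (Subgroup.closure (σ' '' {A, B})).comap σ' := by
      refine Subgroup.comap_mono ((Subgroup.map_mono nine_le).trans ?_)
      rw [MonoidHom.map_closure, Set.image_pair, Set.image_pair, hA, hB]
    refine commutator_comap_closure_le hc' {A, B} _ (fun s _ => Subgroup.mem_normalizer_iff.2 fun h => ?_) ?_
      (Subgroup.commutator_mono hle hle hz)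
    · have hz2 : ∀ k ∈ Subgroup.zpowers S.gen, ∀ y, y * k = k * y := fun k hk y =>
        S.kc ((Subgroup.zpowers_le.2 S.gen_mem) hk) y
      constructor
      · intro hh; rw [hz2 h hh s, mul_inv_cancel_right]; exact hh
      · intro hh
        have e := hz2 _ hh s⁻¹
        rw [show s⁻¹ * (s * h * s⁻¹) = h * s⁻¹ by group] at e
        rw [show h = s * h * s⁻¹ from mul_right_cancel e]
        exact hh
    · rintro s (rfl | rfl) t (rfl | rfl)
      · rw [commutatorElement_self]; exact one_mem _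
      · exact hAB
      · rw [← commutatorElement_inv]; exact inv_mem hAB
      · rw [commutatorElement_self]; exact one_mem _
  intro z hz hzk
  have hz' : q z ∈ ⁅S.H.comap σ', S.H.comap σ'⁆ := by
    have hle : (HH.comap σ).map q ≤ S.H.comap σ' := by
      rintro _ ⟨w, hw, rfl⟩
      rw [hHH]; exact hw
    have := Subgroup.mem_map_of_mem q hz
    rw [Subgroup.map_commutator] at this
    exact Subgroup.commutator_mono hle hle this
  obtain ⟨k, hk⟩ := S.bound hD _ hz' hzk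
  simp only at hk
  rw [hgen, ← map_zpow] at hk
  have hd : (g ^ k)⁻¹ * z ∈ C := QuotientGroup.eq.1 hk
  rw [show z = g ^ k * ((g ^ k)⁻¹ * z) from (mul_inv_cancel_left _ _).symm]
  refine mul_mem (zpow_mem (Subgroup.subset_closure (Set.mem_range_self (f := ![c1, g]) 1)) k) ?_
  exact (Subgroup.zpowers_le.2 (Subgroup.subset_closure (Set.mem_range_self (f := ![c1, g]) 0))) hd

end CfsgLib.SchurMult.U43.Three
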