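import Cfsg.Agent.Lib.SchurMult.U43.ThreeGroup
import Cfsg.Agent.Lib.SchurMult.O73.Cover
import Cfsg.Agent.Lib.SchurMult.CentralComm
import Cfsg.Agent.Lib.SchurMult.U43.Common

/-!
A perfect central extension of `PSU₄(3)` with kernel of order divisible by `36`: a subgroup of two copies of the
sextuple cover of `Ω₇(3)`, glued by the automorphism given by a similitude of multiplier two.
-/

set_option autoImplicit false
set_option linter.unusedSectionVars false
set_option linter.style.haveILetI false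
set_option maxRecDepth 4000

namespace CfsgLib.SchurMult.U43.Cover

open CfsgLib.ClassicalForms

open CfsgLib.OrthGen (act act_mul ext_act mkIso)
open scoped commutatorElement

/-! ### The embedding in seven dimensions -/

/-- The first six coordinates. -/
def res (x : O73.V7) : V6 := fun i => x i.castSucc

/-- A map of six coordinates extended by the identity. -/
def extV (f : V6 → V6) (x : O73.V7) : O73.V7 := fun i =>
  if h : i.val < 6 then f (res x) ⟨i.val, h⟩ else x 6

theorem res_extV (f : V6 → V6) (x : O73.V7) : res (extV f x) = f (res x) := funext fun i => by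
  rw [res, extV, dif_pos (show i.castSucc.val < 6 from i.isLt)]; rfl

theorem last_extV (f : V6 → V6) (x : O73.V7) : extV f x 6 = x 6 := by
  rw [extV, dif_neg (by decide)]

theorem ext_seven {x y : O73.V7} (h : res x = res y) (h' : x 6 = y 6) : x = y :=
  funext fun i => Fin.lastCases h' (fun j => congrFun h j) i

/-- The linear map. -/
def extLin (g : O6) : O73.V7 →ₗ[K] O73.V7 where
  toFun := extV (g : V6 ≃ₗ[K] V6)
  map_add' x y := ext_seven
    (by rw [res_extV, show res (x + y) = res x + res y from rfl, map_add,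
      show res (extV (g : V6 ≃ₗ[K] V6) x + extV (g : V6 ≃ₗ[K] V6) y) =
        res (extV (g : V6 ≃ₗ[K] V6) x) + res (extV (g : V6 ≃ₗ[K] V6) y) from rfl, res_extV, res_extV])
    (by rw [last_extV, Pi.add_apply, Pi.add_apply, last_extV, last_extV])
  map_smul' c x := ext_seven
    (by rw [res_extV, show res (c • x) = c • res x from rfl, map_smul, RingHom.id_apply,
      show res (c • extV (g : V6 ≃ₗ[K] V6) x) = c • res (extV (g : V6 ≃ₗ[K] V6) x) from rfl, res_extV])
    (by rw [last_extV, RingHom.id_apply, Pi.smul_apply, Pi.smul_apply, last_extV])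

theorem extLin_mul (g h : O6) (x : O73.V7) : extLin (g * h) x = extLin g (extLin h x) := by
  refine ext_seven ?_ ?_
  · show res (extV ((g * h : O6) : V6 ≃ₗ[K] V6) x) =
      res (extV (g : V6 ≃ₗ[K] V6) (extV (h : V6 ≃ₗ[K] V6) x))
    rw [res_extV, res_extV, res_extV, orth_mul_apply]
  · show extV ((g * h : O6) : V6 ≃ₗ[K] V6) x 6 = extV (g : V6 ≃ₗ[K] V6) (extV (h : V6 ≃ₗ[K] V6) x) 6
    rw [last_extV, last_extV, last_extV]

theorem extLin_one (x : O73.V7) : extLin 1 x = x :=
  ext_seven ((res_extV ((1 : O6) : V6 ≃ₗ[K] V6) x).trans (orth_one_apply _)) (last_extV ((1 : O6) : V6 ≃ₗ[K] V6) x)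

theorem Q7_split (x : O73.V7) : O73.Q7 x = -(Q6 (res x) + x 6 * x 6) := by
  rw [O73.Q_eq, Q6_apply, dt, SpSixTwo.dotK, Fin.sum_univ_castSucc]
  rfl

theorem Q_extLin (g : O6) (x : O73.V7) : O73.Q7 (extLin g x) = O73.Q7 x := by
  show O73.Q7 (extV _ x) = _
  rw [Q7_split, Q7_split, res_extV, last_extV]
  exact congrArg (fun a => -(a + x 6 * x 6)) (g.2 (res x))

theorem mat_mul_inv (g : O6) : LinearMap.toMatrix' (extLin g) * LinearMap.toMatrix' (extLin g⁻¹) = 1 := by
  rw [← LinearMap.toMatrix'_comp, show (extLin g).comp (extLin g⁻¹) = LinearMap.id from LinearMap.ext fun x => by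
    rw [LinearMap.comp_apply, ← extLin_mul, mul_inv_cancel, extLin_one, LinearMap.id_apply], LinearMap.toMatrix'_id]

/-- The isometry of seven coordinates. -/
noncomputable def iotaFun (g : O6) : O73.O7 :=
  mkIso O73.Q7 (LinearMap.toMatrix' (extLin g)) (LinearMap.toMatrix' (extLin g⁻¹)) (mat_mul_inv g)
    (by simpa using mat_mul_inv g⁻¹)
    (fun x => by rw [LinearMap.toMatrix'_mulVec]; exact Q_extLin g x)

theorem act_iotaFun (g : O6) (x : O73.V7) : act O73.Q7 (iotaFun g) x = extV (g : V6 ≃ₗ[K] V6) x :=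
  LinearMap.toMatrix'_mulVec (extLin g) x

/-- The embedding. -/
noncomputable def iota : Om6 →* O73.O7 :=
  (MonoidHom.mk' iotaFun fun g h => ext_act fun x => by
    rw [act_mul, act_iotaFun, act_iotaFun, act_iotaFun]
    exact extLin_mul g h x).comp Om6.subtype

theorem act_iota (g : Om6) (x : O73.V7) : act O73.Q7 (iota g) x = extV (g.1 : V6 ≃ₗ[K] V6) x :=
  act_iotaFun _ x

theorem iota_mem (g : Om6) : iota g ∈ O73.Om := by
  have h : iota.range ≤ O73.Om := by
    rw [MonoidHom.range_eq_map, ← perfect_Om6, commutator_def, Subgroup.map_commutator]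
    exact Subgroup.commutator_mono le_top le_top
  exact h ⟨g, rfl⟩

theorem exists_lift (g : Om6) : ∃ p : O73.Cov, O73.prX p = iota g := by
  have h := iota_mem g
  rw [← O73.range_prX] at h
  exact h

/-! ### The automorphism -/

/-- The similitude. -/
def sFn (x : V6) : V6 := ![x 0 + x 1, x 0 - x 1, x 2 + x 3, x 2 - x 3, x 4 + x 5, x 4 - x 5]

/-- Its inverse. -/
def sInv (x : V6) : V6 := (2 : K) • sFn x

theorem sFn_add (x y : V6) : sFn (x + y) = sFn x + sFn y := by
  funext i; fin_cases i <;> simp [sFn] <;> ring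

theorem sFn_smul (c : K) (x : V6) : sFn (c • x) = c • sFn x := by
  funext i; fin_cases i <;> simp [sFn] <;> ring

theorem sFn_sFn (x : V6) : sFn (sFn x) = (2 : K) • x := by
  funext i; fin_cases i <;> simp [sFn] <;> ring

theorem four_smul (x : V6) : (2 : K) • (2 : K) • x = x := by
  rw [smul_smul, show (2 : K) * 2 = 1 by decide, one_smul]

theorem Q6_sFn (x : V6) : Q6 (sFn x) = 2 * Q6 x := by
  rw [Q6_apply, Q6_apply]
  simp [sFn, dt, Fin.sum_univ_six]
  ring

/-- The similitude as an equivalence. -/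
def sL : V6 ≃ₗ[K] V6 where
  toFun := sFn
  map_add' := sFn_add
  map_smul' := sFn_smul
  invFun := sInv
  left_inv x := by rw [sInv, sFn_sFn, four_smul]
  right_inv x := by rw [sInv, sFn_smul, sFn_sFn, four_smul]

/-- Conjugation by the similitude. -/
def alphaO : O6 →* O6 :=
  MonoidHom.mk' (fun g => ⟨sL.symm.trans ((g : V6 ≃ₗ[K] V6).trans sL), fun x => by
      show Q6 (sFn ((g : V6 ≃ₗ[K] V6) (sInv x))) = Q6 x
      rw [Q6_sFn, show Q6 ((g : V6 ≃ₗ[K] V6) (sInv x)) = Q6 (sInv x) from g.2 _, sInv, QuadraticMap.map_smul,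
        Q6_sFn, smul_eq_mul]
      have h3 : (3 : K) = 0 := by decide
      linear_combination (5 * Q6 x) * h3⟩)
    fun g h => orth_ext fun x => by
      rw [orth_mul_apply]
      show sFn (((g * h : O6) : V6 ≃ₗ[K] V6) (sInv x)) =
        sFn ((g : V6 ≃ₗ[K] V6) (sInv (sFn ((h : V6 ≃ₗ[K] V6) (sInv x)))))
      rw [orth_mul_apply, show ∀ y, sInv (sFn y) = y from fun y => sL.symm_apply_apply y]

theorem alphaO_apply (g : O6) (x : V6) :
    (alphaO g : V6 ≃ₗ[K] V6) x = sFn ((g : V6 ≃ₗ[K] V6) (sInv x)) := rfl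

/-- The automorphism. -/
def alpha6 : Om6 →* Om6 :=
  (alphaO.comp Om6.subtype).codRestrict Om6 fun g => by
    have := Subgroup.mem_map_of_mem alphaO (show g.1 ∈ ⁅(⊤ : Subgroup O6), ⊤⁆ from g.2)
    rw [Subgroup.map_commutator] at this
    exact Subgroup.commutator_mono le_top le_top this

theorem alpha6_apply (g : Om6) (x : V6) :
    ((alpha6 g).1 : V6 ≃ₗ[K] V6) x = sFn ((g.1 : V6 ≃ₗ[K] V6) (sInv x)) := rfl

theorem alpha6_alpha6 (g : Om6) : alpha6 (alpha6 g) = g := by
  refine Subtype.ext (orth_ext fun x => ?_)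
  rw [alpha6_apply, alpha6_apply, sFn_sFn, sInv, sInv, sFn_smul, sFn_sFn, four_smul, map_smul, four_smul]

theorem alpha6_center {g : Om6} (hg : g ∈ Subgroup.center Om6) : alpha6 g ∈ Subgroup.center Om6 := by
  rcases mem_center.1 hg with rfl | rfl
  · rw [map_one]; exact one_mem _
  · refine mem_center.2 (Or.inr (Subtype.ext (orth_ext fun x => ?_)))
    rw [alpha6_apply, minus_apply, minus_apply, ← neg_one_smul K (sInv x), sFn_smul, neg_one_smul,
      show sFn (sInv x) = x from sL.apply_symm_apply x]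

/-! ### The glued extension -/

instance : Finite O6 := finite_orth Q6

/-- The ambient product. -/
abbrev Big := (O73.Cov × O73.Cov) × (Om6 × Om6)

/-- The glued group. -/
noncomputable def FF : Subgroup Big :=
  (O73.prX.comp ((MonoidHom.fst _ _).comp (MonoidHom.fst _ _))).eqLocus
      (iota.comp ((MonoidHom.fst _ _).comp (MonoidHom.snd _ _))) ⊓
    (O73.prX.comp ((MonoidHom.snd _ _).comp (MonoidHom.fst _ _))).eqLocus
      (iota.comp ((MonoidHom.snd _ _).comp (MonoidHom.snd _ _))) ⊓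
    ((qm.comp alpha6).comp ((MonoidHom.fst _ _).comp (MonoidHom.snd _ _))).eqLocus
      (qm.comp ((MonoidHom.snd _ _).comp (MonoidHom.snd _ _)))

theorem mem_FF {x : Big} :
    x ∈ FF ↔ (O73.prX x.1.1 = iota x.2.1 ∧ O73.prX x.1.2 = iota x.2.2) ∧ qm (alpha6 x.2.1) = qm x.2.2 :=
  Iff.rfl

/-- The cover. -/
noncomputable abbrev GG : Subgroup FF := commutator FF

/-- The six-dimensional component. -/
noncomputable def gpr : FF →* Om6 := ((MonoidHom.fst _ _).comp (MonoidHom.snd _ _)).comp FF.subtype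

/-- The projection on the simple group. -/
noncomputable def tauF : FF →* G0 := qm.comp gpr

/-- The projection of the cover. -/
noncomputable def tauG : GG →* G0 := tauF.comp GG.subtype

theorem gpr_surjective : Function.Surjective gpr := fun g => by
  obtain ⟨p, hp⟩ := exists_lift g
  obtain ⟨q, hq⟩ := exists_lift (alpha6 g)
  exact ⟨⟨((p, q), (g, alpha6 g)), mem_FF.2 ⟨⟨hp, hq⟩, rfl⟩⟩, rfl⟩

theorem map_gpr : GG.map gpr = ⊤ := by
  rw [GG, commutator_def, Subgroup.map_commutator, Subgroup.map_top_of_surjective _ gpr_surjective, ← commutator_def,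
    perfect_Om6]

theorem tauG_surjective : Function.Surjective tauG := fun y => by
  obtain ⟨g, rfl⟩ := QuotientGroup.mk'_surjective _ y
  obtain ⟨d, hd, e⟩ : g ∈ GG.map gpr := by rw [map_gpr]; exact Subgroup.mem_top _
  exact ⟨⟨d, hd⟩, congrArg qm e⟩

theorem ker_comps {z : FF} (hz : tauF z = 1) :
    z.1.2.1 ∈ Subgroup.center Om6 ∧ z.1.2.2 ∈ Subgroup.center Om6 := by
  have h1 : z.1.2.1 ∈ Subgroup.center Om6 := (QuotientGroup.eq_one_iff _).1 hz
  refine ⟨h1, (QuotientGroup.eq_one_iff _).1 ?_⟩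
  exact ((mem_FF.1 z.2).2).symm.trans ((QuotientGroup.eq_one_iff _).2 (alpha6_center h1))

theorem comm_central {z : FF} (hz : tauF z = 1) (a : FF) (y : FF) : y * ⁅z, a⁆ = ⁅z, a⁆ * y := by
  have hc : ∀ {g : Om6}, g ∈ Subgroup.center Om6 → ∀ h : Om6, ⁅g, h⁆ = 1 := fun hg h =>
    commutatorElement_eq_one_iff_commute.2 (Subgroup.mem_center_iff.1 hg h).symm
  obtain ⟨h1, h2⟩ := ker_comps hz
  have e1 : (⁅z, a⁆ : FF).1.2.1 = 1 := hc h1 a.1.2.1
  have e2 : (⁅z, a⁆ : FF).1.2.2 = 1 := hc h2 a.1.2.2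
  have m1 : (⁅z, a⁆ : FF).1.1.1 ∈ O73.prX.ker := by
    rw [MonoidHom.mem_ker, (mem_FF.1 ⁅z, a⁆.2).1.1, e1, map_one]
  have m2 : (⁅z, a⁆ : FF).1.1.2 ∈ O73.prX.ker := by
    rw [MonoidHom.mem_ker, (mem_FF.1 ⁅z, a⁆.2).1.2, e2, map_one]
  refine Subtype.ext (Prod.ext (Prod.ext ?_ ?_) (Prod.ext ?_ ?_))
  · exact Subgroup.mem_center_iff.1 (O73.ker_le_center m1) _
  · exact Subgroup.mem_center_iff.1 (O73.ker_le_center m2) _
  · show y.1.2.1 * _ = _ * y.1.2.1
    rw [e1, mul_one, one_mul]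
  · show y.1.2.2 * _ = _ * y.1.2.2
    rw [e2, mul_one, one_mul]

theorem ker_commute_cover {z : FF} (hz : tauF z = 1) {d : FF} (hd : d ∈ GG) : Commute z d := by
  have h : GG ≤ Subgroup.centralizer {z} := by
    rw [GG, commutator_def, Subgroup.commutator_le]
    intro a _ b _
    rw [Subgroup.mem_centralizer_singleton_iff]
    have conj : ∀ y : FF, y * z * y⁻¹ = ⁅z, y⁆⁻¹ * z := fun y => by rw [commutatorElement_def]; group
    have hab : ∀ u v : FF, u * v * z * (u * v)⁻¹ = ⁅z, u⁆⁻¹ * ⁅z, v⁆⁻¹ * z := fun u v => by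
      have hu : u * ⁅z, v⁆⁻¹ = ⁅z, v⁆⁻¹ * u := (show Commute u ⁅z, v⁆ from comm_central hz v u).inv_right.eq
      have huv : ⁅z, u⁆⁻¹ * ⁅z, v⁆⁻¹ = ⁅z, v⁆⁻¹ * ⁅z, u⁆⁻¹ :=
        ((show Commute ⁅z, u⁆ ⁅z, v⁆ from comm_central hz v ⁅z, u⁆).inv_inv).eq
      calc u * v * z * (u * v)⁻¹ = u * (v * z * v⁻¹) * u⁻¹ := by group
        _ = u * ⁅z, v⁆⁻¹ * z * u⁻¹ := by rw [conj v]; group
        _ = ⁅z, v⁆⁻¹ * (u * z * u⁻¹) := by rw [hu]; group
        _ = ⁅z, u⁆⁻¹ * ⁅z, v⁆⁻¹ * z := by rw [conj u, ← mul_assoc, huv]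
    have e : a⁻¹ * b⁻¹ * z * (a⁻¹ * b⁻¹)⁻¹ = b⁻¹ * a⁻¹ * z * (b⁻¹ * a⁻¹)⁻¹ := by
      rw [hab, hab, ((show Commute ⁅z, a⁻¹⁆ ⁅z, b⁻¹⁆ from comm_central hz b⁻¹ ⁅z, a⁻¹⁆).inv_inv).eq]
    refine mul_inv_eq_iff_eq_mul.1 ?_
    calc ⁅a, b⁆ * z * (⁅a, b⁆)⁻¹ = (a * b) * (a⁻¹ * b⁻¹ * z * (a⁻¹ * b⁻¹)⁻¹) * (a * b)⁻¹ := by
          rw [commutatorElement_def]; group
      _ = z := by rw [e]; group
  exact (Subgroup.mem_centralizer_singleton_iff.1 (h hd)).symm

theorem ker_commute {k k' : FF} (hk : tauF k = 1) (hk' : tauF k' = 1) : Commute k k' := by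
  obtain ⟨h1, h2⟩ := ker_comps hk
  obtain ⟨h1', h2'⟩ := ker_comps hk'
  obtain ⟨c, hc⟩ := exists_lift minus
  have hmem : ∀ {g : Om6}, g ∈ Subgroup.center Om6 → iota g ∈ Subgroup.zpowers (O73.prX c) := by
    intro g hg
    rcases mem_center.1 hg with rfl | rfl
    · rw [map_one]; exact one_mem _
    · rw [hc]; exact Subgroup.mem_zpowers _
  refine Subtype.ext (Prod.ext (Prod.ext ?_ ?_) (Prod.ext ?_ ?_))
  · exact commutatorElement_eq_one_iff_mul_comm.1 (comm_eq_one_of_mem_zpowers O73.ker_le_center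
      ((mem_FF.1 k.2).1.1 ▸ hmem h1) ((mem_FF.1 k'.2).1.1 ▸ hmem h1'))
  · exact commutatorElement_eq_one_iff_mul_comm.1 (comm_eq_one_of_mem_zpowers O73.ker_le_center
      ((mem_FF.1 k.2).1.2 ▸ hmem h2) ((mem_FF.1 k'.2).1.2 ▸ hmem h2'))
  · exact Subgroup.mem_center_iff.1 h1' _
  · exact Subgroup.mem_center_iff.1 h2' _

theorem perfect_cover : commutator GG = ⊤ := by
  have hdec : ∀ u : FF, ∃ d ∈ GG, ∃ k, tauF k = 1 ∧ u = d * k := fun u => by
    obtain ⟨d, hd⟩ := tauG_surjective (tauF u)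
    exact ⟨d.1, d.2, d.1⁻¹ * u, by rw [map_mul, map_inv, ← hd]; exact inv_mul_cancel _, by group⟩
  have hDD : GG ≤ ⁅GG, GG⁆ := by
    conv_lhs => rw [GG, commutator_def]
    refine Subgroup.commutator_le.2 fun u _ v _ => ?_
    obtain ⟨d, hd, k, hk, rfl⟩ := hdec u
    obtain ⟨d', hd', k', hk', rfl⟩ := hdec v
    have c1 := ker_commute_cover hk hd
    have c2 := ker_commute_cover hk hd'
    have c3 := ker_commute hk hk'
    have c4 := ker_commute_cover hk' hd
    have e : ⁅d * k, d' * k'⁆ = ⁅d, d'⁆ := by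
      have e1 : d * k * (d' * k') * (d * k)⁻¹ = d * (d' * k') * d⁻¹ := by
        calc d * k * (d' * k') * (d * k)⁻¹ = d * (k * (d' * k') * k⁻¹) * d⁻¹ := by group
          _ = d * (d' * k') * d⁻¹ := by rw [(c2.mul_right c3).eq, mul_inv_cancel_right]
      calc ⁅d * k, d' * k'⁆ = d * k * (d' * k') * (d * k)⁻¹ * (d' * k')⁻¹ := commutatorElement_def _ _
        _ = d * d' * (k' * d⁻¹) * (d' * k')⁻¹ := by rw [e1]; group
        _ = d * d' * (d⁻¹ * k') * (d' * k')⁻¹ := by rw [c4.inv_right.eq]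
        _ = ⁅d, d'⁆ := by rw [commutatorElement_def]; group
    rw [e]
    exact Subgroup.commutator_mem_commutator hd hd'
  rw [eq_top_iff]
  refine (Subgroup.map_le_map_iff_of_injective (f := GG.subtype) (Subgroup.subtype_injective _)).1 ?_
  rw [← MonoidHom.range_eq_map, Subgroup.range_subtype, commutator_def GG, Subgroup.map_commutator,
    ← MonoidHom.range_eq_map, Subgroup.range_subtype]
  exact hDD

theorem isStem : Cfsg.IsStemExtension tauG :=
  ⟨tauG_surjective, fun z hz => Subgroup.mem_center_iff.2 fun y =>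
    Subtype.ext (ker_commute_cover (show tauF z.1 = 1 from hz) y.2).symm.eq, by rw [perfect_cover]; exact le_top⟩

/-! ### The kernel -/

theorem castSucc_ne_six (i : Fin 6) : i.castSucc ≠ (6 : Fin 7) := (Fin.castSucc_lt_last i).ne

theorem spin_sq {p : O73.Cov} (hp : O73.prX p = iota minus) :
    (p.1.2.2 : SpSixTwo.M8) * p.1.2.2 = -1 := by
  obtain ⟨t, P, u, -, -, -, -, hspin⟩ := O73.good_of_mem (O73.cov_le p.2)
  set S : SpSixTwo.M8 := p.1.2.2.val with hS
  have hact : act O73.Q7 p.1.1 = extV (minus.1 : V6 ≃ₗ[K] V6) := funext fun x => by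
    rw [show p.1.1 = iota minus from hp]; exact act_iota minus x
  have hi : ∀ i : Fin 6, S * SpSixTwo.gam i.castSucc = -(SpSixTwo.gam i.castSucc) * S := fun i => by
    have h := hspin (fun j => if j = i.castSucc then 1 else 0)
    rw [hact, show extV (minus.1 : V6 ≃ₗ[K] V6) (fun j => if j = i.castSucc then 1 else 0) =
      fun j => -(if j = i.castSucc then 1 else 0) from ext_seven (by rw [res_extV, minus_apply]; rfl)
        (by rw [last_extV, if_neg (castSucc_ne_six i).symm, neg_zero]),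
      SpSixTwo.G_neg, SpSixTwo.G_single] at h
    exact h
  have h6 : S * SpSixTwo.gam 6 = SpSixTwo.gam 6 * S := by
    have h := hspin (fun j => if j = (6 : Fin 7) then 1 else 0)
    rw [hact, show extV (minus.1 : V6 ≃ₗ[K] V6) (fun j => if j = (6 : Fin 7) then 1 else 0) =
      fun j => if j = (6 : Fin 7) then 1 else 0 from ext_seven (by
        rw [res_extV, minus_apply]
        funext j
        show -(if j.castSucc = (6 : Fin 7) then (1 : K) else 0) = if j.castSucc = (6 : Fin 7) then 1 else 0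
        rw [if_neg (castSucc_ne_six j), neg_zero]) (by rw [last_extV]),
      SpSixTwo.G_single] at h
    exact h
  have hanti : ∀ i : Fin 6, SpSixTwo.gam 6 * SpSixTwo.gam i.castSucc =
      -(SpSixTwo.gam i.castSucc * SpSixTwo.gam 6) := fun i => by
    have h := SpSixTwo.gam_anti 6 i.castSucc
    rw [if_neg (castSucc_ne_six i).symm] at h
    exact eq_neg_of_add_eq_zero_left h
  have hg6 : SpSixTwo.gam 6 * SpSixTwo.gam 6 = -1 := by decide +kernel
  obtain ⟨r, hr⟩ : ∃ r : K, S * SpSixTwo.gam 6 = r • 1 :=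
    ⟨_, SpSixTwo.scalar_of_comm fun k => Fin.lastCases (by rw [show Fin.last 6 = (6 : Fin 7) from rfl, h6,
      mul_assoc, h6]) (fun i => by rw [mul_assoc, hanti, mul_neg, ← mul_assoc, hi, neg_mul, neg_mul, neg_neg,
        mul_assoc]) k⟩
  have hS' : S = -(r • SpSixTwo.gam 6) := by
    have := congrArg (· * SpSixTwo.gam 6) hr
    simp only [mul_assoc, hg6, smul_mul_assoc, one_mul, mul_neg, mul_one] at this
    rw [← this, neg_neg]
  have hr0 : r ≠ 0 := fun h => by
    rw [h, zero_smul, neg_zero] at hS'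
    exact p.1.2.2.ne_zero hS'
  rw [hS', neg_mul_neg, smul_mul_smul_comm, hg6, (show ∀ a : K, a ≠ 0 → a * a = 1 by decide) r hr0, one_smul]

theorem four_dvd : 4 ∣ Nat.card tauG.ker := by
  obtain ⟨d, hd, e⟩ : minus ∈ GG.map gpr := by rw [map_gpr]; exact Subgroup.mem_top _
  let z : tauG.ker := ⟨⟨d, hd⟩, show qm (gpr d) = 1 by rw [e]; exact qm_eq_one.2 (Or.inr rfl)⟩
  let sp : tauG.ker →* SpSixTwo.M8ˣ :=
    (((((MonoidHom.snd _ _).comp (MonoidHom.snd _ _)).comp O73.Cov.subtype).comp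
      ((MonoidHom.fst _ _).comp (MonoidHom.fst _ _))).comp FF.subtype).comp (GG.subtype.comp tauG.ker.subtype)
  have hp : O73.prX d.1.1.1 = iota minus := (mem_FF.1 d.2).1.1.trans (congrArg iota e)
  have hsq : sp z ^ 2 = -1 := by
    rw [pow_two]; exact Units.ext (spin_sq hp)
  have h4 : orderOf (sp z) = 2 ^ 2 := by
    refine orderOf_eq_prime_pow (p := 2) (n := 1) ?_ ?_
    · rw [pow_one, hsq]
      intro h
      have := congrArg (fun a : SpSixTwo.M8ˣ => a.val 0 0) h
      simp at this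
      exact absurd this (by decide)
    · rw [show (2 : ℕ) ^ (1 + 1) = 2 * 2 by rfl, pow_mul, hsq, neg_one_sq]
  exact (show 4 ∣ orderOf z by rw [show (4 : ℕ) = 2 ^ 2 by rfl, ← h4]; exact orderOf_map_dvd sp z).trans
    (orderOf_dvd_natCard z)

/-! ### The shifts of commutators -/

/-- The code of the label of a pair of lines, as an element of the field. -/
def lab (d e : Fin 378) : ℕ := O73.nbN (O73.nbRow d.val) e.val

/-- The change of labels under a map of lines. -/
def delta (P : Fin 378 → Fin 378) (d e : Fin 378) : K :=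
  if d = e then 0 else (lab (P d) (P e) : K) - (lab d e : K)

/-- The pair can be compared. -/
def okPair (d e : Fin 378) : Prop := d = e ∨ lab d e ≠ 0

instance (d e : Fin 378) : Decidable (okPair d e) := inferInstanceAs (Decidable (_ ∨ _))

theorem delta_eq {P : Fin 378 → Fin 378} {u : Fin 378 → K}
    (hadj : ∀ d e c, O73.Adj d e c → O73.Adj (P d) (P e) (c + u e - u d)) {d e : Fin 378} (h : okPair d e) :
    u e - u d = delta P d e := by
  rw [delta]
  by_cases he : d = e
  · rw [if_pos he, he, sub_self]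
  have hl : lab d e ≠ 0 := h.resolve_left he
  rw [if_neg he]
  have hlt : lab d e ≤ 3 := Nat.and_le_right
  set c : K := ((lab d e - 1 : ℕ) : K) with hc
  have hcv : c.val = lab d e - 1 := by rw [hc, ZMod.val_natCast]; exact Nat.mod_eq_of_lt (by omega)
  have ha : O73.Adj d e c := by show lab d e = c.val + 1; omega
  have h' : lab (P d) (P e) = (c + u e - u d).val + 1 := hadj d e c ha
  rw [h', Nat.cast_add, ZMod.natCast_zmod_val, hc, Nat.cast_sub (by omega), Nat.cast_one]
  ring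

/-- The map of lines of a map of six coordinates. -/
def lineMap (f : V6 → V6) (d : Fin 378) : Fin 378 := O73.idxV (extV f (O73.vec d))

/-- The value from which the shift of a commutator is read off. -/
def kap (P Q : Fin 378 → Fin 378) (d m : Fin 378) : K :=
  delta P d m + delta P m (Q d) - delta Q d (P d)

/-- The points needed are joined. -/
def okKap (P Q : Fin 378 → Fin 378) (d m : Fin 378) : Prop :=
  okPair d m ∧ okPair m (Q d) ∧ okPair d (P d)

instance (P Q : Fin 378 → Fin 378) (d m : Fin 378) : Decidable (okKap P Q d m) :=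
  inferInstanceAs (Decidable (_ ∧ _ ∧ _))

/-- The shift of an element of the sextuple cover over the identity. -/
def shv (p : O73.Cov) : K := (p.1.2.1 (0, 0)).2

theorem shift_comm {p q : O73.Cov} {g h : Om6} (hp : O73.prX p = iota g) (hq : O73.prX q = iota h)
    (hgh : Commute g h) {f f' : V6 → V6} (hf : ∀ x, (g.1 : V6 ≃ₗ[K] V6) x = f x)
    (hf' : ∀ x, (h.1 : V6 ≃ₗ[K] V6) x = f' x) (d m : Fin 378)
    (hok : okKap (lineMap f) (lineMap f') d m) : shv ⁅p, q⁆ = kap (lineMap f) (lineMap f') d m := by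
  have key : ∀ {p : O73.Cov} {g : Om6}, O73.prX p = iota g → ∀ {f : V6 → V6},
      (∀ x, (g.1 : V6 ≃ₗ[K] V6) x = f x) → ∃ u : Fin 378 → K,
        (∀ d k, p.1.2.1 (d, k) = (lineMap f d, k + u d)) ∧
        ∀ d e c, O73.Adj d e c → O73.Adj (lineMap f d) (lineMap f e) (c + u e - u d) := by
    intro p g hp f hf
    obtain ⟨t, P, u, -, hperm, hvec, hadj, -⟩ := O73.good_of_mem (O73.cov_le p.2)
    have ht : t = 1 := by
      have := congrArg Prod.snd (Equiv.ext_iff.1 (O73.cov_plus p.2 1) (0, 0))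
      simp only [Equiv.Perm.mul_apply, O73.sh, Equiv.coe_fn_mk, hperm] at this
      linear_combination this
    subst ht
    have hP : P = lineMap f := funext fun d => by
      have hv := hvec d
      rw [show p.1.1 = iota g from hp, act_iota, show ((g.1 : V6 ≃ₗ[K] V6) : V6 → V6) = f from funext hf] at hv
      rw [lineMap]
      rcases hv with e | e <;> rw [e]
      · exact (O73.idxV_vec _).1.symm
      · exact (O73.idxV_vec _).2.symm
    subst hP
    exact ⟨u, fun d k => by rw [hperm, one_mul], fun d e c hc => by simpa using hadj d e c hc⟩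
  obtain ⟨u, hu, hadj⟩ := key hp hf
  obtain ⟨v, hv, hadj'⟩ := key hq hf'
  have hker : ⁅p, q⁆ ∈ O73.prX.ker := comm_mem_ker (by rw [hp, hq]; exact hgh.map iota)
  obtain ⟨a, s, ha, -, -⟩ := O73.ker_form ⁅p, q⁆.2 (MonoidHom.mem_ker.1 hker)
  have hsh : shv ⁅p, q⁆ = a := by rw [shv, ha]; exact zero_add a
  have e : p * q = ⁅p, q⁆ * (q * p) := by rw [commutatorElement_def]; group
  have e' := congrArg (fun x : O73.Cov => x.1.2.1 (d, 0)) e
  simp only [Subgroup.coe_mul, Prod.snd_mul, Prod.fst_mul, Equiv.Perm.mul_apply, ha, hu, hv, O73.sh,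
    Equiv.coe_fn_mk, zero_add] at e'
  have e2 := congrArg Prod.snd e'
  simp only at e2
  rw [hsh, kap, ← delta_eq hadj hok.1, ← delta_eq hadj hok.2.1, ← delta_eq hadj' hok.2.2]
  linear_combination -e2

/-- The first three-cycle as a map. -/
def fA : V6 → V6 := Three.pFun rho.1

/-- The second three-cycle as a map. -/
def fC : V6 → V6 := Three.pFun Three.rho'.1

/-- The conjugate of the first. -/
def fA' (x : V6) : V6 := sFn (fA (sInv x))

/-- The conjugate of the second. -/
def fC' (x : V6) : V6 := sFn (fC (sInv x))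

theorem kap_one : okKap (lineMap fA) (lineMap fC) 0 4 ∧ kap (lineMap fA) (lineMap fC) 0 4 = 1 := by
  decide +kernel

theorem kap_zero : okKap (lineMap fA') (lineMap fC') 2 2 ∧ kap (lineMap fA') (lineMap fC') 2 2 = 0 := by
  decide +kernel

theorem shv_mul {p q : O73.Cov} (hp : O73.prX p = 1) (hq : O73.prX q = 1) : shv (p * q) = shv p + shv q := by
  obtain ⟨a, s, ha, -, -⟩ := O73.ker_form p.2 hp
  obtain ⟨b, r, hb, -, -⟩ := O73.ker_form q.2 hq
  simp only [shv, Subgroup.coe_mul, Prod.snd_mul, Prod.fst_mul, Equiv.Perm.mul_apply, ha, hb, O73.sh,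
    Equiv.coe_fn_mk, zero_add]
  rw [add_comm]

/-- The pair of shifts. -/
def shvHom {H : Type} [Group H] (f : H →* O73.Cov × O73.Cov)
    (hf : ∀ z, O73.prX (f z).1 = 1 ∧ O73.prX (f z).2 = 1) : H →* Multiplicative (K × K) :=
  MonoidHom.mk' (fun z => Multiplicative.ofAdd (shv (f z).1, shv (f z).2)) fun z w => by
    rw [map_mul, Prod.fst_mul, Prod.snd_mul, shv_mul (hf z).1 (hf w).1, shv_mul (hf z).2 (hf w).2]
    exact ofAdd_add (shv (f z).1, shv (f z).2) (shv (f w).1, shv (f w).2)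

/-- The part of the kernel over the identity in both components. -/
noncomputable def kerOne : Subgroup tauG.ker :=
  ((((MonoidHom.snd (O73.Cov × O73.Cov) (Om6 × Om6)).comp FF.subtype).comp GG.subtype).comp
    tauG.ker.subtype).ker

/-- Its pair of components in the sextuple cover. -/
noncomputable def prOne : kerOne →* O73.Cov × O73.Cov :=
  ((((MonoidHom.fst (O73.Cov × O73.Cov) (Om6 × Om6)).comp FF.subtype).comp GG.subtype).comp
    tauG.ker.subtype).comp kerOne.subtype

theorem prOne_spec (z : kerOne) : O73.prX (prOne z).1 = 1 ∧ O73.prX (prOne z).2 = 1 := by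
  have h2 : z.1.1.1.1.2 = 1 := z.2
  refine ⟨?_, ?_⟩
  · exact ((mem_FF.1 z.1.1.1.2).1.1.trans (congrArg (fun w : Om6 × Om6 => iota w.1) h2)).trans (map_one iota)
  · exact ((mem_FF.1 z.1.1.1.2).1.2.trans (congrArg (fun w : Om6 × Om6 => iota w.2) h2)).trans (map_one iota)

theorem exists_pair (p q p' q' : O73.Cov) (g g' : Om6) (h1 : O73.prX p = iota g) (h2 : O73.prX q = iota (alpha6 g))
    (h3 : O73.prX p' = iota g') (h4 : O73.prX q' = iota (alpha6 g')) (hg : Commute g g') :
    ∃ z : kerOne, shvHom prOne prOne_spec z = Multiplicative.ofAdd (shv ⁅p, p'⁆, shv ⁅q, q'⁆) := by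
  have hx : ((p, q), (g, alpha6 g)) ∈ FF := mem_FF.2 ⟨⟨h1, h2⟩, rfl⟩
  have hy : ((p', q'), (g', alpha6 g')) ∈ FF := mem_FF.2 ⟨⟨h3, h4⟩, rfl⟩
  have hxy : (⁅(⟨_, hx⟩ : FF), ⟨_, hy⟩⁆ : FF).1.2 = 1 := Prod.ext (commutatorElement_eq_one_iff_commute.2 hg)
    (commutatorElement_eq_one_iff_commute.2 (hg.map alpha6))
  refine ⟨⟨⟨⟨⁅(⟨_, hx⟩ : FF), ⟨_, hy⟩⁆, ?_⟩, ?_⟩, hxy⟩, rfl⟩
  · exact Subgroup.commutator_mem_commutator (Subgroup.mem_top _) (Subgroup.mem_top _)
  · exact (congrArg (fun w : Om6 × Om6 => qm w.1) hxy).trans (map_one qm)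

theorem perm_apply' (π : A6) (x : V6) : ((pA π).1 : V6 ≃ₗ[K] V6) x = Three.pFun π.1 x :=
  funext fun i => by rw [coe_pA, permHom_apply]; rfl

theorem conj_perm_apply (π : A6) (x : V6) :
    ((alpha6 (pA π)).1 : V6 ≃ₗ[K] V6) x = sFn (Three.pFun π.1 (sInv x)) := by
  rw [alpha6_apply, perm_apply']

theorem comm_rho : Commute (pA rho) (pA Three.rho') :=
  (show Commute rho Three.rho' from (by decide +kernel : rho * Three.rho' = Three.rho' * rho)).map pA

theorem exists_one_zero : ∃ z1 z2 : kerOne, shvHom prOne prOne_spec z1 = Multiplicative.ofAdd (1, 0) ∧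
    shvHom prOne prOne_spec z2 = Multiplicative.ofAdd (0, 1) := by
  have hp := exists_lift (pA rho)
  have hp' := exists_lift (pA Three.rho')
  have hq := exists_lift (alpha6 (pA rho))
  have hq' := exists_lift (alpha6 (pA Three.rho'))
  cases hp with | intro p hA =>
  cases hp' with | intro p' hC =>
  cases hq with | intro q hqA =>
  cases hq' with | intro q' hqC =>
  have e1 : shv ⁅p, p'⁆ = 1 :=
    (shift_comm hA hC comm_rho (f := fA) (f' := fC) (perm_apply' rho) (perm_apply' Three.rho') 0 4 kap_one.1).trans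
      kap_one.2
  have e2 : shv ⁅q, q'⁆ = 0 :=
    (shift_comm hqA hqC (comm_rho.map alpha6) (f := fA') (f' := fC') (conj_perm_apply rho)
      (conj_perm_apply Three.rho') 2 2 kap_zero.1).trans kap_zero.2
  have hz := exists_pair p q p' q' _ _ hA hqA hC hqC comm_rho
  cases hz with | intro z1 hz1 =>
  have hz := exists_pair q p q' p' _ _ hqA (hA.trans (congrArg iota (alpha6_alpha6 _).symm)) hqC
    (hC.trans (congrArg iota (alpha6_alpha6 _).symm)) (comm_rho.map alpha6)
  cases hz with | intro z2 hz2 =>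
  exact ⟨z1, z2, hz1.trans (congrArg Multiplicative.ofAdd (Prod.ext e1 e2)),
    hz2.trans (congrArg Multiplicative.ofAdd (Prod.ext e2 e1))⟩

theorem surjective_of_pair {H : Type} [Group H] (f : H →* Multiplicative (K × K))
    (h : ∃ z1 z2, f z1 = Multiplicative.ofAdd (1, 0) ∧ f z2 = Multiplicative.ofAdd (0, 1)) : Function.Surjective f := by
  obtain ⟨z1, z2, h1, h2⟩ := h
  intro c
  refine ⟨z1 ^ c.toAdd.1.val * z2 ^ c.toAdd.2.val, ?_⟩
  rw [map_mul, map_pow, map_pow, h1, h2, ← ofAdd_nsmul, ← ofAdd_nsmul, ← ofAdd_add]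
  refine Multiplicative.toAdd.injective ?_
  rw [toAdd_ofAdd]
  exact Prod.ext (by simp) (by simp)

theorem dvd_of_surjective {X M : Type} [Group X] [Group M] (H : Subgroup X) (f : H →* M)
    (hf : Function.Surjective f) : Nat.card M ∣ Nat.card X :=
  (Subgroup.card_dvd_of_surjective f hf).trans (Subgroup.card_subgroup_dvd_card H)

theorem card_pairs : Nat.card (Multiplicative (K × K)) = 9 := by
  rw [Nat.card_eq_fintype_card, Fintype.card_multiplicative, Fintype.card_prod, ZMod.card]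

theorem nine_dvd : 9 ∣ Nat.card tauG.ker :=
  Eq.subst (motive := fun n => n ∣ Nat.card tauG.ker) card_pairs
    (dvd_of_surjective kerOne (shvHom prOne prOne_spec) (surjective_of_pair _ exists_one_zero))

theorem thirtysix_dvd : 36 ∣ Nat.card tauG.ker :=
  Nat.Coprime.mul_dvd_of_dvd_of_dvd (by norm_num : Nat.Coprime 4 9) four_dvd nine_dvd

theorem finite_cover : Finite GG := inferInstance

end CfsgLib.SchurMult.U43.Cover
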