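import Cfsg.Agent.Lib.SchurMult.U43.BoundThree
import Cfsg.Agent.Lib.SchurMult.U43.BoundTwo
import Cfsg.Agent.Lib.SchurMult.U43.Cover

/-!
The Schur multiplier of `PSU₄(3)`.
-/

set_option autoImplicit false
set_option linter.unusedSectionVars false
set_option linter.style.haveILetI false

namespace CfsgLib.SchurMult.U43

/-- The abelian group of the statement. -/
abbrev A36 := Multiplicative (ZMod 4 × ZMod 3 × ZMod 3)

theorem pow_val_add {M : Type} [Monoid M] {x : M} {n : ℕ} [NeZero n] (h : x ^ n = 1) (a b : ZMod n) :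
    x ^ (a + b).val = x ^ a.val * x ^ b.val := by
  rw [ZMod.val_add, ← pow_add]
  conv_rhs => rw [← Nat.mod_add_div (a.val + b.val) n, pow_add, pow_mul, h, one_pow, mul_one]

/-- The map given by three central elements. -/
def triple {M : Type} [Group M] (hM : ∀ a b : M, a * b = b * a) (x y w : M) (hx : x ^ 4 = 1) (hy : y ^ 3 = 1)
    (hw : w ^ 3 = 1) : A36 →* M :=
  MonoidHom.mk' (fun c => x ^ c.toAdd.1.val * y ^ c.toAdd.2.1.val * w ^ c.toAdd.2.2.val) fun c d => by
    simp only [toAdd_mul, Prod.fst_add, Prod.snd_add, pow_val_add hx, pow_val_add hy, pow_val_add hw]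
    have h : ∀ a b e f : M, a * b * (e * f) = a * e * (b * f) := fun a b e f => by
      rw [mul_assoc a b, ← mul_assoc b e, hM b e, mul_assoc e b, ← mul_assoc a e]
    symm
    refine (h _ _ _ _).trans ?_
    rw [h (x ^ c.toAdd.1.val)]

theorem card_A36 : Nat.card A36 = 36 := by
  rw [Nat.card_eq_fintype_card, Fintype.card_multiplicative, Fintype.card_prod, Fintype.card_prod, ZMod.card,
    ZMod.card]

/-- Every kernel of a stem extension is an image of the abelian group of order `36`. -/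
theorem exists_surjection {Γ : Type} [Group Γ] [Finite Γ] {σ : Γ →* G0} (hσ : Cfsg.IsStemExtension σ) :
    ∃ π : A36 →* σ.ker, Function.Surjective π := by
  obtain ⟨c2, hc2, hb2⟩ := exists_pBound hσ (p := 2) (a := 7) (m := 25515) (m' := 3) Nat.prime_two
    (by rw [card_G0]; norm_num) (by norm_num) (by norm_num) (fun _ : Fin 1 => 4) Two.HH Two.not_dvd_index_HH
    fun Γ' _ _ σ' hs hc h2 => Two.bound σ' hs hc h2
  obtain ⟨c3, hc3, hb3⟩ := exists_pBound hσ (p := 3) (a := 6) (m := 4480) (m' := 337) Nat.prime_three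
    (by rw [card_G0]; norm_num) (by norm_num) (by norm_num) (fun _ : Fin 2 => 3) Three.HH Three.not_dvd_index_HH
    fun Γ' _ _ σ' hs hc h3 => Three.bound σ' hs hc h3
  have hM : ∀ a b : σ.ker, a * b = b * a := fun a b =>
    Subtype.ext (Subgroup.mem_center_iff.1 (hσ.2.1 b.2) a.1)
  let π := triple hM ⟨c2 0, (hc2 0).1⟩ ⟨c3 0, (hc3 0).1⟩ ⟨c3 1, (hc3 1).1⟩ (Subtype.ext (hc2 0).2)
    (Subtype.ext (hc3 0).2) (Subtype.ext (hc3 1).2)
  refine ⟨π, ?_⟩
  let T : Subgroup Γ := π.range.map σ.ker.subtype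
  have hev : ∀ c : A36, (π c).1 = c2 0 ^ c.toAdd.1.val * c3 0 ^ c.toAdd.2.1.val * c3 1 ^ c.toAdd.2.2.val :=
    fun c => rfl
  have hT2 : Subgroup.closure (Set.range c2) ≤ T := by
    rw [Subgroup.closure_le]
    rintro _ ⟨i, rfl⟩
    rw [Subsingleton.elim i 0]
    exact ⟨π (Multiplicative.ofAdd (1, 0, 0)), ⟨_, rfl⟩, by
      rw [Subgroup.subtype_apply, hev]
      simp [ZMod.val_one_eq_one_mod]⟩
  have hT3 : Subgroup.closure (Set.range c3) ≤ T := by
    rw [Subgroup.closure_le]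
    rintro _ ⟨i, rfl⟩
    fin_cases i
    · exact ⟨π (Multiplicative.ofAdd (0, 1, 0)), ⟨_, rfl⟩, by
        rw [Subgroup.subtype_apply, hev]
        simp [ZMod.val_one_eq_one_mod]⟩
    · exact ⟨π (Multiplicative.ofAdd (0, 0, 1)), ⟨_, rfl⟩, by
        rw [Subgroup.subtype_apply, hev]
        simp [ZMod.val_one_eq_one_mod]⟩
  -- only two primes divide the kernel
  have hexp : ∀ z : σ.ker, (z : Γ) ^ 93312 = 1 := fun z => by
    have hG : orderOf (z : Γ) ∣ 93312 * 35 := by
      have := orderOf_dvd_of_pow_eq_one (ker_pow_card hσ z.2)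
      rwa [card_G0] at this
    have hco : ∀ p : ℕ, p.Prime → ¬ p ^ 2 ∣ 3265920 → ¬ p ∣ orderOf (z : Γ) := fun p hp h2 hd =>
      not_dvd_card_ker_of_sq_not_dvd hσ hp (by rwa [card_G0])
        (hd.trans (by rw [Subgroup.orderOf_coe]; exact orderOf_dvd_natCard z))
    have h5 := hco 5 (by norm_num) (by norm_num)
    have h7 := hco 7 (by norm_num) (by norm_num)
    have hc : (orderOf (z : Γ)).Coprime 35 :=
      Nat.Coprime.mul_right (((Nat.Prime.coprime_iff_not_dvd (by norm_num : Nat.Prime 5)).2 h5).symm)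
        (((Nat.Prime.coprime_iff_not_dvd (by norm_num : Nat.Prime 7)).2 h7).symm)
    exact orderOf_dvd_iff_pow_eq_one.1 (hc.dvd_of_dvd_mul_right hG)
  intro z
  have h2z : ((z : Γ) ^ 729) ∈ T := hT2 (hb2 _ (pow_mem z.2 _) 7 (by rw [← pow_mul]; exact hexp z))
  have h3z : ((z : Γ) ^ 128) ∈ T := hT3 (hb3 _ (pow_mem z.2 _) 6 (by rw [← pow_mul]; exact hexp z))
  obtain ⟨y, ⟨c, rfl⟩, e⟩ : (z : Γ) ∈ T := by
    have := mul_mem (pow_mem h2z 105) (pow_mem h3z 131)
    rwa [← pow_mul, ← pow_mul, ← pow_add, show 729 * 105 + 128 * 131 = 93312 + 1 by norm_num, pow_succ, hexp,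
      one_mul] at this
  exact ⟨c, Subtype.ext e⟩

/-- The Schur multiplier of the model of `PSU₄(3)`. -/
theorem hasSchurMultiplier_G0 : Cfsg.HasSchurMultiplier G0 A36 := by
  haveI := Cover.finite_cover
  refine ⟨⟨Cover.GG, inferInstance, Cover.finite_cover, Cover.tauG, Cover.isStem, ?_⟩,
    fun Γ _ _ σ hσ => exists_surjection hσ⟩
  obtain ⟨π, hπ⟩ := exists_surjection Cover.isStem
  have hle : Nat.card Cover.tauG.ker ≤ 36 := card_A36 ▸ Nat.card_le_card_of_surjective π hπ
  have hge : 36 ≤ Nat.card Cover.tauG.ker := Nat.le_of_dvd Nat.card_pos Cover.thirtysix_dvd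
  have hb : Function.Bijective π := (Nat.bijective_iff_surjective_and_card π).2 ⟨hπ, by rw [card_A36]; omega⟩
  exact ⟨(MulEquiv.ofBijective π hb).symm⟩

end CfsgLib.SchurMult.U43
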